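import Mathlib

/-!
# Moving a transitive action to the coset space of a point stabiliser
-/

set_option autoImplicit false

namespace Cfsg.Agent.Suzuki

open MulAction

variable {G X : Type*} [Group G] [MulAction G X]

/-- Double transitivity and sharp transitivity of a subgroup `S` off the point `x₀`,
moved to the coset space `G ⧸ H` where `H` is the stabiliser of `x₀`. -/
lemma coset_action_of_stabilizer (x₀ : X) {H : Subgroup G} (hH : H = stabilizer G x₀)
    [IsPretransitive G X] (h2 : IsMultiplyPretransitive G X 2) (S : Subgroup G)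
    (hreg : ∀ p q : X, p ≠ x₀ → q ≠ x₀ → ∃! s : S, (s : G) • p = q) :
    IsMultiplyPretransitive G (G ⧸ H) 2 ∧
      ∀ p q : G ⧸ H, p ≠ QuotientGroup.mk 1 → q ≠ QuotientGroup.mk 1 →
        ∃! s : S, (s : G) • p = q := by
  subst hH
  set f : G ⧸ stabilizer G x₀ → X := ofQuotientStabilizer G x₀
  have hf : ∀ (g : G) (y : G ⧸ stabilizer G x₀), f (g • y) = g • f y :=
    fun g y => ofQuotientStabilizer_smul G x₀ g y
  have hi : Function.Injective f := injective_ofQuotientStabilizer G x₀
  have h1 : f (QuotientGroup.mk 1) = x₀ := one_smul G x₀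
  refine ⟨?_, fun p q hp hq => ?_⟩
  · rw [is_two_pretransitive_iff] at h2 ⊢
    intro a b c d hab hcd
    obtain ⟨g, hg1, hg2⟩ := h2 (hi.ne hab) (hi.ne hcd)
    exact ⟨g, hi (by rw [hf, hg1]), hi (by rw [hf, hg2])⟩
  · obtain ⟨s, hs, hu⟩ := hreg (f p) (f q)
      (fun h => hp (hi (h.trans h1.symm))) (fun h => hq (hi (h.trans h1.symm)))
    exact ⟨s, hi (by rw [hf]; exact hs),
      fun t ht => hu t (show (t : G) • f p = f q by rw [← hf]; exact congrArg f ht)⟩

end Cfsg.Agent.Suzuki
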